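import Mathlib
import Cfsg.Agent.Lib.Helper50.CAI.Defs
import Cfsg.Agent.S1225

/-!
# Project CAI (S2202), package (BLOCK)

Two different Sylow 2-subgroups with the same odd part force it to be normal.
-/

set_option autoImplicit false

namespace Cfsg.Agent.Lib.Helper25.CAI

open Cfsg.Agent.Lib.Helper50.CAI

universe u

theorem mem_smul_sylow {G : Type u} [Group G] (g y : G) (R : Sylow 2 G) :
    y ∈ ((g • R : Sylow 2 G) : Subgroup G) ↔ g⁻¹ * y * g ∈ (R : Subgroup G) := by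
  rw [Sylow.coe_subgroup_smul, Subgroup.mem_pointwise_smul_iff_inv_smul_mem]
  simp [MulAut.smul_def]

theorem pkgBlock (hB : PkgBasic.{u}) (hSub : PkgSub.{u}) (hQuot : PkgQuot.{u}) (hZ : PkgZ.{u})
    (hNH : PkgNoHall.{u}) : PkgBlock.{u} := by
  intro G _ _ hH P Q hPQ hBPQ hX
  classical
  obtain ⟨B0, hB0⟩ : ∃ B0 : Subgroup G, B0 = Bz P := ⟨_, rfl⟩
  obtain ⟨X, hXdef⟩ : ∃ X : Subgroup G, X = Subgroup.normalizer (B0 : Set G) := ⟨_, rfl⟩
  rw [← hB0, ← hXdef] at hX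
  have hBP : Bz P = B0 := hB0.symm
  have hBQ : Bz Q = B0 := by rw [← hBPQ]; exact hBP
  have hmemX : ∀ g : G, g ∈ X ↔ ∀ h, h ∈ B0 ↔ g * h * g⁻¹ ∈ B0 := by
    intro g
    rw [hXdef]
    exact Subgroup.mem_normalizer_iff
  have F2 : ∀ (R R' : Sylow 2 G) (g : G), Bz R = B0 → Bz R' = B0 → g • R' = R → g ∈ X := by
    intro R R' g hR hR' hg
    rw [hmemX]
    intro h
    have h1 := (hB hH R').conjB g (g * h * g⁻¹)
    rw [hg, hR, hR'] at h1
    have h2 : g⁻¹ * (g * h * g⁻¹) * g = h := by group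
    rw [h2] at h1
    exact h1.symm
  have F3 : ∀ (R : Sylow 2 G) (x : G), x ∈ X → Bz R = B0 → Bz (x • R) = B0 := by
    intro R x hx hR
    ext y
    rw [(hB hH R).conjB x y, hR]
    have h1 := (hmemX x).mp hx (x⁻¹ * y * x)
    have h2 : x * (x⁻¹ * y * x) * x⁻¹ = y := by group
    rw [h2] at h1
    exact h1
  have hstab : ∀ (R : Sylow 2 G), Bz R = B0 → (R : Subgroup G) ≤ X := by
    intro R hR g hg
    apply F2 R R g hR hR
    rw [Sylow.smul_eq_iff_mem_normalizer]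
    exact Subgroup.le_normalizer hg
  have hPX : (P : Subgroup G) ≤ X := hstab P hBP
  have hQX : (Q : Subgroup G) ≤ X := hstab Q hBQ
  have hB0X : B0 ≤ X := by
    rw [hXdef]
    exact Subgroup.le_normalizer
  obtain ⟨hHypX, hS1, hS2⟩ := hSub hH X P Q hPQ hPX hQX
  obtain ⟨P', hP'map, -⟩ := hS1 P hPX
  -- every Sylow 2-subgroup of `X` has odd part `B0`
  have K : ∀ R' : Sylow 2 ↥X, ∃ R : Sylow 2 G, (R : Subgroup G) ≤ X ∧
      (R' : Subgroup ↥X).map X.subtype = (R : Subgroup G) ∧ Bz R = B0 ∧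
      (Bz R').map X.subtype = B0 := by
    intro R'
    obtain ⟨x, hx⟩ := MulAction.exists_smul_eq ↥X P' R'
    obtain ⟨R, hRX, hRmap, hRB⟩ := hS2 R'
    have hRP : R = (x : G) • P := by
      apply Sylow.ext
      ext y
      rw [mem_smul_sylow, ← hRmap, ← hP'map, ← hx]
      constructor
      · rintro ⟨z, hz, rfl⟩
        have hz' : z ∈ ((x • P' : Sylow 2 ↥X) : Subgroup ↥X) := hz
        rw [mem_smul_sylow] at hz'
        exact ⟨x⁻¹ * z * x, hz', by simp⟩
      · rintro ⟨z, hz, hzy⟩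
        refine ⟨x * z * x⁻¹, ?_, ?_⟩
        · show x * z * x⁻¹ ∈ ((x • P' : Sylow 2 ↥X) : Subgroup ↥X)
          rw [mem_smul_sylow]
          have : x⁻¹ * (x * z * x⁻¹) * x = z := by group
          rw [this]
          exact hz
        · have h1 : (X.subtype (x * z * x⁻¹) : G) = (x : G) * (X.subtype z) * (x : G)⁻¹ := by
            simp
          rw [h1, hzy]
          group
    have hBR : Bz R = B0 := by
      rw [hRP]
      exact F3 P x x.2 hBP
    refine ⟨R, hRX, hRmap, hBR, ?_⟩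
    rw [hRB, hBR]
    exact inf_eq_left.mpr hB0X
  -- every involution of `X` lies in a Sylow 2-subgroup with odd part `B0`
  have F7 : ∀ t : G, t ∈ X → orderOf t = 2 →
      ∃ R : Sylow 2 G, t ∈ (R : Subgroup G) ∧ Bz R = B0 := by
    intro t htX ht
    have hpg : IsPGroup 2 ↥(Subgroup.zpowers (⟨t, htX⟩ : ↥X)) := by
      apply IsPGroup.of_card (n := 1)
      rw [Nat.card_zpowers, Subgroup.orderOf_mk, ht, pow_one]
    obtain ⟨R', hR'⟩ := hpg.exists_le_sylow
    obtain ⟨R, -, hRmap, hBR, -⟩ := K R'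
    refine ⟨R, ?_, hBR⟩
    rw [← hRmap]
    exact ⟨⟨t, htX⟩, hR' (Subgroup.mem_zpowers _), rfl⟩
  have hinvP : ∃ t0 : G, t0 ∈ (P : Subgroup G) ∧ orderOf t0 = 2 := by
    have h3 := (hB hH P).three
    have hne : Nonempty {t : G // t ∈ (P : Subgroup G) ∧ orderOf t = 2} := by
      by_contra hne
      rw [not_nonempty_iff] at hne
      have h0 : mInv P = 0 := by
        unfold mInv
        exact Nat.card_of_isEmpty
      omega
    obtain ⟨⟨t0, h1, h2⟩⟩ := hne
    exact ⟨t0, h1, h2⟩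
  obtain ⟨t0, ht0P, ht0⟩ := hinvP
  -- `X` is strongly embedded
  have hSE : Cfsg.IsStronglyEmbedded X := by
    refine ⟨hX, ?_, ?_⟩
    · have h1 : orderOf (⟨t0, hPX ht0P⟩ : ↥X) = 2 := by
        rw [Subgroup.orderOf_mk]
        exact ht0
      have h2 := orderOf_dvd_natCard (⟨t0, hPX ht0P⟩ : ↥X)
      rw [h1] at h2
      exact (even_iff_two_dvd).mpr h2
    · intro g hg
      by_contra hodd
      rw [Nat.not_odd_iff_even, even_iff_two_dvd] at hodd
      haveI : Fact (Nat.Prime 2) := ⟨Nat.prime_two⟩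
      obtain ⟨t', ht'⟩ := exists_prime_orderOf_dvd_card' 2 hodd
      have ht : orderOf (t' : G) = 2 := by
        rw [Subgroup.orderOf_coe]
        exact ht'
      have htX : (t' : G) ∈ X := t'.2.1
      obtain ⟨y, hyX, hy⟩ := t'.2.2
      have hy' : g * y * g⁻¹ = (t' : G) := by simpa using hy
      have hyo : orderOf y = 2 := by
        have h1 : orderOf ((MulAut.conj g) y) = orderOf y := MulEquiv.orderOf_eq _ y
        rw [← h1, MulAut.conj_apply, hy']
        exact ht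
      obtain ⟨R, htR, hRB⟩ := F7 _ htX ht
      obtain ⟨R', hyR', hR'B⟩ := F7 y hyX hyo
      have hRR' : g • R' = R := by
        by_contra hne
        have h1 : (t' : G) ∈ ((g • R' : Sylow 2 G) : Subgroup G) := by
          rw [mem_smul_sylow, ← hy']
          have h2 : g⁻¹ * (g * y * g⁻¹) * g = y := by group
          rw [h2]
          exact hyR'
        have h2 := (hB hH R).ti (g • R') hne (t' : G) htR h1
        rw [h2, orderOf_one] at ht
        exact absurd ht (by norm_num)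
      exact hg (F2 R R' g hRB hR'B hRR')
  -- an involution outside `X`
  obtain ⟨g0, hg0⟩ : ∃ g0 : G, g0 ∉ X := by
    by_contra hcon
    push Not at hcon
    exact hX ((Subgroup.eq_top_iff' X).mpr hcon)
  obtain ⟨u, hudef⟩ : ∃ u : G, u = g0 * t0 * g0⁻¹ := ⟨_, rfl⟩
  have hu : orderOf u = 2 := by
    have h1 : orderOf ((MulAut.conj g0) t0) = orderOf t0 := MulEquiv.orderOf_eq _ t0
    rw [hudef, ← MulAut.conj_apply, h1]
    exact ht0
  have huX : u ∉ X := by
    intro huX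
    obtain ⟨R, huR, hRB⟩ := F7 u huX hu
    have hRR : g0 • P = R := by
      by_contra hne
      have h1 : u ∈ ((g0 • P : Sylow 2 G) : Subgroup G) := by
        rw [mem_smul_sylow, hudef]
        have h2 : g0⁻¹ * (g0 * t0 * g0⁻¹) * g0 = t0 := by group
        rw [h2]
        exact ht0P
      have h2 := (hB hH R).ti (g0 • P) hne u huR h1
      rw [h2, orderOf_one] at hu
      exact absurd hu (by norm_num)
    exact hg0 (F2 R P g0 hRB hBP hRR)
  obtain ⟨D, hDdef⟩ : ∃ D : Subgroup G, D = X ⊓ X.map (MulAut.conj u).toMonoidHom := ⟨_, rfl⟩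
  have hDodd : Odd (Nat.card D) := by
    rw [hDdef]
    exact hSE.2.2 u huX
  have hDX : D ≤ X := by
    rw [hDdef]
    exact inf_le_left
  have hDtrans : ∀ s t : G, orderOf s = 2 → s ∈ X → orderOf t = 2 → t ∈ X →
      ∃ d ∈ D, d * s * d⁻¹ = t := by
    intro s t hs hsX ht htX
    rw [hDdef]
    exact (Cfsg.Agent.S1225.result X hSE u hu huX s t hs hsX ht htX).1
  -- the quotient of `X` by `B0`
  obtain ⟨N, hNdef⟩ : ∃ N : Subgroup ↥X, N = B0.subgroupOf X := ⟨_, rfl⟩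
  haveI hNn : N.Normal := by
    rw [hNdef]
    exact (Subgroup.normal_subgroupOf_iff_le_normalizer hB0X).mpr (le_of_eq hXdef)
  have hmemN : ∀ x : ↥X, x ∈ N ↔ (x : G) ∈ B0 := by
    intro x
    rw [hNdef]
    exact Subgroup.mem_subgroupOf
  have hBzX : ∀ R' : Sylow 2 ↥X, Bz R' = N := by
    intro R'
    obtain ⟨R, -, -, -, hmap⟩ := K R'
    ext x
    rw [hmemN]
    constructor
    · intro hx
      rw [← hmap]
      exact ⟨x, hx, rfl⟩
    · intro hx
      rw [← hmap] at hx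
      obtain ⟨z, hz, hzx⟩ := hx
      have hzx' : z = x := Subtype.ext hzx
      rw [← hzx']
      exact hz
  obtain ⟨hHypΓ, -, -, hq4, hq5⟩ := hQuot hHypX N (fun R' => (hBzX R').ge)
  have hBzΓ : ∀ P'' : Sylow 2 (↥X ⧸ N), Bz P'' = ⊥ := by
    intro P''
    obtain ⟨R', hR'⟩ := hq4 P''
    rw [hR', hBzX R']
    exact QuotientGroup.map_mk'_self N
  have hBTI : BTI (↥X ⧸ N) := by
    intro P1 P2 _ x hx _
    rw [hBzΓ P1] at hx
    exact Subgroup.mem_bot.mp hx
  have hZΓ : ZFacts (↥X ⧸ N) := hZ hHypΓ hBTI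
  obtain ⟨D', hD'def⟩ : ∃ D' : Subgroup (↥X ⧸ N),
      D' = (D.subgroupOf X).map (QuotientGroup.mk' N) := ⟨_, rfl⟩
  have hD'odd : Odd (Nat.card D') := by
    have h1 : Nat.card D' ∣ Nat.card (D.subgroupOf X) := by
      rw [hD'def]
      exact Subgroup.card_map_dvd (H := D.subgroupOf X) (QuotientGroup.mk' N)
    have h2 : Nat.card (D.subgroupOf X) = Nat.card D :=
      Nat.card_congr (Subgroup.subgroupOfEquivOfLe hDX).toEquiv
    rw [h2] at h1
    exact hDodd.of_dvd_nat h1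
  apply hNH hHypΓ hBzΓ hZΓ D' hD'odd
  intro s' t' hs' ht'
  obtain ⟨s, hs, rfl⟩ := hq5 s' hs'
  obtain ⟨t, ht, rfl⟩ := hq5 t' ht'
  obtain ⟨d, hdD, hd⟩ := hDtrans (s : G) (t : G) (by rw [Subgroup.orderOf_coe]; exact hs) s.2
    (by rw [Subgroup.orderOf_coe]; exact ht) t.2
  refine ⟨QuotientGroup.mk' N ⟨d, hDX hdD⟩, ?_, ?_⟩
  · rw [hD'def]
    exact ⟨⟨d, hDX hdD⟩, Subgroup.mem_subgroupOf.mpr hdD, rfl⟩
  · have h1 : (⟨d, hDX hdD⟩ : ↥X) * s * (⟨d, hDX hdD⟩ : ↥X)⁻¹ = t := Subtype.ext hd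
    rw [← h1, map_mul, map_mul, map_inv]

end Cfsg.Agent.Lib.Helper25.CAI
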